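import Cfsg.Agent.SymAlt.Carmichael
import Mathlib.GroupTheory.SpecificGroups.Alternating.Centralizer

/-! Automorphisms of alternating groups that preserve 3-cycles are induced by permutations. -/

set_option autoImplicit false
set_option linter.unusedVariables false

namespace Cfsg.Agent.SymAlt

open Equiv Equiv.Perm Subgroup

variable {α : Type*} [DecidableEq α] [Fintype α]

theorem IsThreeCycle_eq_c3 {s : Perm α} (hs : IsThreeCycle s) {b : α} (hb : s b ≠ b) :
    s = c3 (s b) b (s (s b)) ∧ s b ≠ b ∧ s (s b) ≠ s b ∧ s (s b) ≠ b := by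
  have h1 := hs.eq_swap_mul_swap_iff_mem_support.2 (mem_support.2 hb)
  have h2 := hs.nodup_iff_mem_support.2 (mem_support.2 hb)
  refine ⟨?_, hb, s.injective.ne hb, ?_⟩
  · rw [c3, swap_comm]; exact h1
  · intro h
    simp [h] at h2

theorem exists_common_edge {s t : Perm α} (hs : IsThreeCycle s) (ht : IsThreeCycle t)
    (h2 : (s * t) ^ 2 = 1) (h1 : s * t ≠ 1) : ∃ b, s b ≠ b ∧ t b = s b := by
  by_contra hne
  push Not at hne
  have s3 : s ^ 3 = 1 := by rw [← hs.orderOf, pow_orderOf_eq_one]
  have e1 : t⁻¹ * s = s * t * s⁻¹ := by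
    rw [← carm_braid h2, carm_inv s3]
    calc s * t * s * s = s * t * (s * s) := by group
      _ = _ := rfl
  have h3 : IsThreeCycle (t⁻¹ * s) := by
    rw [e1, IsThreeCycle, cycleType_conj]; exact ht
  have a1 : s.support ⊆ (t⁻¹ * s).support := by
    intro z hz
    rw [mem_support] at hz ⊢
    rw [Perm.mul_apply, ne_eq, Perm.inv_eq_iff_eq]
    exact (hne z hz).symm
  have a2 : t.support ⊆ (t⁻¹ * s).support := by
    intro z hz
    by_cases h : s z = z
    · rw [mem_support] at hz ⊢
      rw [Perm.mul_apply, ne_eq, Perm.inv_eq_iff_eq, h]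
      exact hz.symm
    · exact a1 (mem_support.2 h)
  have a3 := Finset.eq_of_subset_of_card_le a1 (by rw [h3.card_support, hs.card_support])
  have a4 := Finset.eq_of_subset_of_card_le a2 (by rw [h3.card_support, ht.card_support])
  apply h1
  ext z
  by_cases hz : z ∈ s.support
  · have b1 := hs.support_eq_iff_mem_support.2 hz
    have b2 : t z ∈ t.support := by rw [apply_mem_support, a4, ← a3]; exact hz
    have b3 : t z ≠ z := by rw [← mem_support, a4, ← a3]; exact hz
    have b4 := hne z (mem_support.1 hz)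
    rw [a4, ← a3, b1] at b2
    simp only [Finset.mem_insert, Finset.mem_singleton, b3, b4, false_or] at b2
    rw [Perm.mul_apply, b2]
    have : (s ^ 3) z = z := by rw [s3]; rfl
    simpa [pow_succ] using this
  · have b1 : t z = z := by rw [← notMem_support, a4, ← a3]; exact hz
    rw [Perm.mul_apply, b1, notMem_support.1 hz, Perm.one_apply]

theorem c3_mul_ne_one {u v i j : α} (huv : u ≠ v) (h1 : i ≠ u) (h2 : i ≠ v) (h3 : j ≠ u)
    (h4 : j ≠ v) (hij : i ≠ j) : c3 u v i * c3 u v j ≠ 1 := by
  intro h
  have := DFunLike.congr_fun h u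
  rw [Perm.mul_apply, c3_apply_left h3 h4, c3_apply_of_ne h3 h4 hij.symm] at this
  exact h3 this

theorem edge_of_two {a b x y : α} (hab : a ≠ b) (hxa : x ≠ a) (hxb : x ≠ b) (hya : y ≠ a)
    (hyb : y ≠ b) (hxy : x ≠ y) {t : Perm α} (ht : IsThreeCycle t)
    (h1 : ∃ z, c3 a b x z ≠ z ∧ t z = c3 a b x z) (h2 : ∃ z, c3 a b y z ≠ z ∧ t z = c3 a b y z) :
    t b = a := by
  have key : ∀ w, w ≠ a → w ≠ b → (∃ z, c3 a b w z ≠ z ∧ t z = c3 a b w z) →
      t b = a ∨ t a = w ∨ t w = b := by
    rintro w h3 h4 ⟨z, hz, hz'⟩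
    by_cases e1 : z = a
    · rw [e1, c3_apply_left h3 h4] at hz'; exact Or.inr (Or.inl hz')
    by_cases e2 : z = b
    · rw [e2, c3_apply_right hab h4] at hz'; exact Or.inl hz'
    by_cases e3 : z = w
    · rw [e3, c3_apply_self] at hz'; exact Or.inr (Or.inr hz')
    exact absurd (c3_apply_of_ne e1 e2 e3) hz
  have four : ∀ w w', w ≠ a → w ≠ b → w' ≠ a → w' ≠ b → w ≠ w' → t a = w → t w' = b → False := by
    intro w w' q1 q2 q3 q4 q5 q6 q7
    have m1 : a ∈ t.support := mem_support.2 (by rw [q6]; exact q1)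
    have m2 : w ∈ t.support := by rw [← q6, apply_mem_support]; exact m1
    have m3 : w' ∈ t.support := mem_support.2 (by rw [q7]; exact q4.symm)
    have m4 : b ∈ t.support := by rw [← q7, apply_mem_support]; exact m3
    have : ({a, b, w, w'} : Finset α) ⊆ t.support := by
      intro z hz
      simp only [Finset.mem_insert, Finset.mem_singleton] at hz
      rcases hz with rfl | rfl | rfl | rfl <;> assumption
    have h5 := Finset.card_le_card this
    rw [ht.card_support, Finset.card_insert_of_notMem (by simp [hab, q1.symm, q3.symm]),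
      Finset.card_insert_of_notMem (by simp [q2.symm, q4.symm]), Finset.card_pair q5] at h5
    omega
  rcases key x hxa hxb h1 with h | h | h
  · exact h
  · rcases key y hya hyb h2 with h' | h' | h'
    · exact h'
    · exact absurd (h.symm.trans h') hxy
    · exact (four x y hxa hxb hya hyb hxy h h').elim
  · rcases key y hya hyb h2 with h' | h' | h'
    · exact h'
    · exact (four y x hya hyb hxa hxb hxy.symm h' h).elim
    · exact absurd (t.injective (h.trans h'.symm)) hxy

theorem exists_four (h4 : 4 ≤ Fintype.card α) (s : Finset α) (hs : s.card < 4) : ∃ x, x ∉ s := by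
  by_contra h
  push Not at h
  have := Finset.card_le_card (show Finset.univ ⊆ s from fun x _ => h x)
  rw [Finset.card_univ] at this
  omega

/-- An automorphism of the alternating group preserving 3-cycles is induced by a permutation. -/
theorem exists_conj_of_preserves (h4 : 4 ≤ Fintype.card α) (φ : MulAut (alternatingGroup α))
    (hφ : ∀ c : alternatingGroup α, IsThreeCycle (c : Perm α) → IsThreeCycle (φ c : Perm α)) :
    ∃ σ : Perm α, MulAut.conjNormal σ = φ := by
  obtain ⟨u, -⟩ := exists_four h4 ∅ (by simp)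
  obtain ⟨v, hv⟩ := exists_four h4 {u} (by simp)
  obtain ⟨i0, hi0⟩ := exists_four h4 {u, v} (by have := Finset.card_le_two (a := u) (b := v); omega)
  obtain ⟨i1, hi1⟩ := exists_four h4 {u, v, i0}
    (by have := Finset.card_le_three (a := u) (b := v) (c := i0); omega)
  simp only [Finset.mem_insert, Finset.mem_singleton, not_or] at hv hi0 hi1
  have huv : u ≠ v := fun h => hv h.symm
  let c : α → alternatingGroup α := fun i =>
    if h : i ≠ u then ⟨c3 u v i, sign_c3 huv h⟩ else 1
  have hc : ∀ i, i ≠ u → (c i : Perm α) = c3 u v i := by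
    intro i hi
    simp only [c, dif_pos hi]
  let d : α → Perm α := fun i => φ (c i)
  have hd : ∀ i, i ≠ u → i ≠ v → IsThreeCycle (d i) := fun i h1 h2 =>
    hφ _ (by rw [hc i h1]; exact isThreeCycle_c3 huv h1 h2)
  have hedge : ∀ i j, i ≠ u → i ≠ v → j ≠ u → j ≠ v → i ≠ j →
      d i ≠ d j ∧ ∃ b, d i b ≠ b ∧ d j b = d i b := by
    intro i j h1 h2 h3 h4 h5
    refine ⟨fun h => ?_, exists_common_edge (hd i h1 h2) (hd j h3 h4) ?_ ?_⟩
    · have := congrArg (fun w : alternatingGroup α => (w : Perm α) u) (φ.injective (Subtype.ext h))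
      simp only [hc i h1, hc j h3, c3_apply_left h1 h2, c3_apply_left h3 h4] at this
      exact h5 this
    · have : (c i * c j) ^ 2 = 1 := Subtype.ext (by
        simp only [Subgroup.coe_pow, Subgroup.coe_mul, hc i h1, hc j h3]
        exact c3_mul_sq huv h1 h2 h3 h4 h5)
      have := congrArg (fun w => (φ w : Perm α)) this
      simpa using this
    · intro h
      have : φ (c i * c j) = 1 := Subtype.ext (by simpa using h)
      rw [map_eq_one_iff _ φ.injective] at this
      have := congrArg Subtype.val this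
      rw [Subgroup.coe_mul, hc i h1, hc j h3] at this
      exact c3_mul_ne_one huv h1 h2 h3 h4 h5 this
  obtain ⟨hne, b, hb, hb'⟩ := hedge i0 i1 hi0.1 hi0.2 hi1.1 hi1.2.1 (Ne.symm hi1.2.2)
  set a := d i0 b with ha
  have form : ∀ i, i ≠ u → i ≠ v → d i b = a → d i = c3 a b (d i a) ∧ d i a ≠ a ∧ d i a ≠ b := by
    intro i h1 h2 h3
    have := IsThreeCycle_eq_c3 (hd i h1 h2) (b := b) (by rw [h3]; exact hb)
    rw [h3] at this
    exact ⟨this.1, this.2.2⟩
  have f0 := form i0 hi0.1 hi0.2 rfl
  have f1 := form i1 hi1.1 hi1.2.1 hb'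
  have hall : ∀ i, i ≠ u → i ≠ v → d i b = a := by
    intro i h1 h2
    by_cases e0 : i = i0
    · rw [e0]
    by_cases e1 : i = i1
    · rw [e1, hb']
    refine edge_of_two hb f0.2.1 f0.2.2 f1.2.1 f1.2.2 (fun h => hne ?_) (hd i h1 h2) ?_ ?_
    · rw [f0.1, f1.1, h]
    · rw [← f0.1]; exact (hedge i0 i hi0.1 hi0.2 h1 h2 (Ne.symm e0)).2
    · rw [← f1.1]; exact (hedge i1 i hi1.1 hi1.2.1 h1 h2 (Ne.symm e1)).2
  let f : α → α := fun i => if i = u then a else if i = v then b else d i a
  have fu : f u = a := if_pos rfl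
  have fv : f v = b := by simp only [f, if_neg huv.symm, if_true]
  have fi : ∀ i, i ≠ u → i ≠ v → f i = d i a := fun i h1 h2 => by simp only [f, if_neg h1, if_neg h2]
  have hf : Function.Injective f := by
    intro i j hij
    by_contra hne'
    by_cases i1 : i = u
    · by_cases j2 : j = v
      · rw [i1, j2, fu, fv] at hij; exact hb hij
      · have j1 : j ≠ u := fun h => hne' (i1.trans h.symm)
        rw [i1, fu, fi j j1 j2] at hij
        exact (form j j1 j2 (hall j j1 j2)).2.1 hij.symm
    by_cases i2 : i = v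
    · by_cases j1 : j = u
      · rw [i2, j1, fu, fv] at hij; exact hb hij.symm
      · have j2 : j ≠ v := fun h => hne' (i2.trans h.symm)
        rw [i2, fv, fi j j1 j2] at hij
        exact (form j j1 j2 (hall j j1 j2)).2.2 hij.symm
    rw [fi i i1 i2] at hij
    by_cases j1 : j = u
    · rw [j1, fu] at hij; exact (form i i1 i2 (hall i i1 i2)).2.1 hij
    by_cases j2 : j = v
    · rw [j2, fv] at hij; exact (form i i1 i2 (hall i i1 i2)).2.2 hij
    rw [fi j j1 j2] at hij
    apply (hedge i j i1 i2 j1 j2 hne').1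
    rw [(form i i1 i2 (hall i i1 i2)).1, (form j j1 j2 (hall j j1 j2)).1, hij]
  let σ : Perm α := Equiv.ofBijective f (Finite.injective_iff_bijective.1 hf)
  refine ⟨σ, ?_⟩
  ext1 g
  have := mem_of_c3_mem (((MulAut.conjNormal σ : MulAut (alternatingGroup α)).toMonoidHom.eqLocus
    φ.toMonoidHom).map (alternatingGroup α).subtype) huv Set.univ (by
      intro i _ h1 h2
      refine ⟨c i, Subtype.ext ?_, hc i h1⟩
      change σ * (c i : Perm α) * σ⁻¹ = d i
      rw [hc i h1, conj_c3, (form i h1 h2 (hall i h1 h2)).1]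
      change c3 (f u) (f v) (f i) = _
      rw [fu, fv, fi i h1 h2]) g g.2 (fun _ _ _ h => absurd trivial h)
  obtain ⟨g', hg', hg''⟩ := this
  rw [← Subtype.ext hg'']
  exact hg'

theorem conjNormal_injective (h4 : 4 ≤ Fintype.card α) :
    Function.Injective (MulAut.conjNormal : Perm α →* MulAut (alternatingGroup α)) := by
  rw [injective_iff_map_eq_one]
  intro g hg
  ext x
  by_contra hx
  replace hx : g x ≠ x := hx
  obtain ⟨v, hv⟩ := exists_four h4 {x, g x}
    (by have := Finset.card_le_two (a := x) (b := g x); omega)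
  obtain ⟨i, hi⟩ := exists_four h4 {x, g x, v}
    (by have := Finset.card_le_three (a := x) (b := g x) (c := v); omega)
  simp only [Finset.mem_insert, Finset.mem_singleton, not_or] at hv hi
  have h1 := congrArg (fun w : MulAut (alternatingGroup α) =>
    (w ⟨c3 x v i, sign_c3 (Ne.symm hv.1) hi.1⟩ : Perm α) (g x)) hg
  change (g * c3 x v i * g⁻¹) (g x) = c3 x v i (g x) at h1
  rw [c3_apply_of_ne hx (Ne.symm hv.2) (Ne.symm hi.2.1)] at h1
  simp only [Perm.mul_apply, Perm.coe_inv, symm_apply_apply, c3_apply_left hi.1 hi.2.2] at h1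
  exact hi.1 (g.injective h1)

theorem two_mul_card_centralizer_alt (g : alternatingGroup α)
    (h : ¬ centralizer {(g : Perm α)} ≤ alternatingGroup α) :
    2 * Nat.card (centralizer ({g} : Set (alternatingGroup α))) =
      Nat.card (centralizer {(g : Perm α)}) := by
  have h1 : (alternatingGroup α).relIndex (centralizer {(g : Perm α)}) = 2 := by
    have a1 : (alternatingGroup α).relIndex (centralizer {(g : Perm α)}) ∣
      (alternatingGroup α).index := relIndex_dvd_index_of_normal _ _
    have a2 : (alternatingGroup α).index ∣ 2 := by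
      rcases subsingleton_or_nontrivial α with h | h
      · rw [alternatingGroup.index_eq_one]; norm_num
      · rw [alternatingGroup.index_eq_two]
    rcases (Nat.dvd_prime Nat.prime_two).1 (a1.trans a2) with h2 | h2
    · exact absurd (relIndex_eq_one.1 h2) h
    · exact h2
  rw [← ((alternatingGroup α).subgroupOf (centralizer {(g : Perm α)})).index_mul_card]
  rw [relIndex] at h1
  rw [h1]
  congr 1
  refine Nat.card_congr ⟨fun x => ⟨⟨x.1.1, ?_⟩, x.1.2⟩, fun x => ⟨⟨x.1.1, x.2⟩, ?_⟩,
    fun _ => rfl, fun _ => rfl⟩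
  · rintro _ rfl
    exact congrArg Subtype.val (x.2 g rfl)
  · rintro _ rfl
    exact Subtype.ext (x.1.2 _ rfl)

theorem three_pow_mul_lt (j : ℕ) : 3 ^ (j + 2) * (j + 3).factorial < (3 * (j + 2)).factorial := by
  induction j with
  | zero => decide
  | succ j ih =>
    rw [show 3 * (j + 1 + 2) = 3 * (j + 2) + 1 + 1 + 1 by ring, Nat.factorial_succ (3 * _ + 1 + 1),
      Nat.factorial_succ (3 * _ + 1), Nat.factorial_succ (3 * _), show j + 1 + 2 = j + 2 + 1 from rfl,
      pow_succ, show j + 1 + 3 = j + 3 + 1 from rfl, Nat.factorial_succ (j + 3)]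
    calc _ = 3 * (j + 3 + 1) * (3 ^ (j + 2) * (j + 3).factorial) := by ring
      _ < 3 * (j + 3 + 1) * (3 * (j + 2)).factorial := by gcongr
      _ ≤ ((3 * (j + 2) + 1 + 1 + 1) * (3 * (j + 2) + 1 + 1)) * (3 * (j + 2)).factorial := by
        exact Nat.mul_le_mul_right _ (by nlinarith)
      _ ≤ _ := by rw [mul_assoc]; gcongr; exact Nat.le_mul_of_pos_left _ (by omega)

theorem isThreeCycle_aut (h6 : Fintype.card α ≠ 6) (φ : MulAut (alternatingGroup α))
    (c : alternatingGroup α) (hc : IsThreeCycle (c : Perm α)) : IsThreeCycle (φ c : Perm α) := by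
  have ho : orderOf (φ c : Perm α) = 3 := by
    rw [orderOf_coe, φ.orderOf_eq, ← orderOf_coe, hc.orderOf]
  obtain ⟨k, hk⟩ := cycleType_prime_order (σ := (φ c : Perm α)) (by rw [ho]; norm_num)
  rw [ho] at hk
  rcases k with _ | k
  · exact hk
  exfalso
  have hs := sum_cycleType_le (φ c : Perm α)
  have e1 := two_mul_card_centralizer_alt c (by
    rw [centralizer_le_alternating_iff, hc.cycleType]
    simp [hk] at hs ⊢; omega)
  have e2 := two_mul_card_centralizer_alt (φ c) (by
    rw [centralizer_le_alternating_iff, hk]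
    intro h
    have := h.2.2 3
    simp at this)
  have e3 : Nat.card (centralizer ({c} : Set (alternatingGroup α))) =
      Nat.card (centralizer ({φ c} : Set (alternatingGroup α))) :=
    Nat.card_congr (φ.toEquiv.subtypeEquiv fun x => by
      simp only [mem_centralizer_singleton_iff]
      exact ⟨fun h => by simpa using congrArg φ h, fun h => φ.injective (by simpa using h)⟩)
  rw [e3, e2, nat_card_centralizer, nat_card_centralizer, hk, hc.cycleType] at e1
  rw [hk, Multiset.sum_replicate, smul_eq_mul] at hs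
  obtain ⟨m, hm⟩ := Nat.exists_eq_add_of_le hs
  simp only [Multiset.sum_replicate, Multiset.prod_replicate, Multiset.toFinset_replicate,
    Multiset.sum_singleton, Multiset.prod_singleton, Multiset.toFinset_singleton, smul_eq_mul, hm,
    Finset.prod_singleton, Multiset.count_singleton_self, Nat.add_eq_zero_iff, one_ne_zero,
    and_false, if_false, Multiset.count_replicate_self, Nat.add_sub_cancel_left,
    Nat.factorial_one, mul_one] at e1
  rw [show (k + 1 + 1) * 3 + m - 3 = m + 3 * (k + 1) by omega, pow_succ] at e1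
  have hm0 := m.factorial_pos
  rcases k with _ | k
  · simp only [zero_add, mul_one, Nat.factorial_succ (m + 2), Nat.factorial_succ (m + 1),
      Nat.factorial_succ m] at e1
    have : 6 = (m + 3) * (m + 2) * (m + 1) :=
      Nat.eq_of_mul_eq_mul_left hm0 (by norm_num [Nat.factorial] at e1; nlinarith)
    have h : 4 * 3 * 2 ≤ (m + 3) * (m + 2) * (m + 1) := by gcongr <;> omega
    omega
  · have h1 := Nat.le_of_dvd (Nat.factorial_pos _)
      (Nat.factorial_mul_factorial_dvd_factorial_add m (3 * (k + 2)))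
    have h2 := Nat.mul_lt_mul_of_pos_left (three_pow_mul_lt k) hm0
    have : m.factorial * (3 ^ (k + 2) * (k + 3).factorial) = (m + 3 * (k + 2)).factorial := by
      nlinarith
    omega

end Cfsg.Agent.SymAlt
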